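import Cfsg.Agent.Lib.Schur.Hopf

/-!
# Lifting projective representations to Schur covers
-/

namespace Cfsg.Lib.Schur

open Subgroup

universe u v w

/-- Homomorphisms lift from a Schur cover along central extensions with divisible kernel. -/
theorem exists_lift_of_cover {Q : Type u} [Group Q] {A : Type v} [CommGroup A]
    (hA : HasSchurMultiplier Q A) {Γ : Type w} [Group Γ] {σ : Γ →* Q} (hσ : IsStemExtension σ)
    (e : σ.ker ≃* A) {X H : Type*} [Group X] [Group H] (γ : Q →* H) {ξ : X →* H}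
    (hs : Function.Surjective ξ) (hξ : ξ.ker ≤ center X)
    (hdiv : ∀ n : ℕ, n ≠ 0 → ∀ z : ξ.ker, ∃ w : ξ.ker, w ^ n = z) :
    ∃ ρ : Γ →* X, ξ.comp ρ = γ.comp σ := by
  open scoped IsMulCommutative in
  have := finite_group_of_hasSchurMultiplier hA
  obtain ⟨U, _, π, h⟩ := exists_isFreeCentral Q
  obtain ⟨η, hη⟩ := h.exists_lift hσ.1 hσ.2.1
  have hηs := surjective_of_stem h.surj hσ hη
  have hb := h.ker_inf_commutator_eq_bot hA hσ e hη
  obtain ⟨ψ, hψ⟩ := h.exists_lift' γ hs hξ
  have hk : η.ker ≤ π.ker := fun u hu => by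
    show π u = 1
    rw [← hη, MonoidHom.comp_apply, (show η u = 1 from hu), map_one]
  have : IsMulCommutative η.ker := isMulCommutative_of_le_center (hk.trans h.central)
  have : IsMulCommutative ξ.ker := isMulCommutative_of_le_center hξ
  let θ : η.ker →* ξ.ker := (ψ.comp η.ker.subtype).codRestrict _ fun s => by
    show ξ (ψ s) = 1
    rw [← MonoidHom.comp_apply, hψ, MonoidHom.comp_apply, (show π s = 1 from hk s.2), map_one]
  let i : η.ker →* Abelianization U := Abelianization.of.comp η.ker.subtype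
  have hi : Function.Injective i := by
    rw [injective_iff_map_eq_one]
    intro s hs1
    have : (s : U) ∈ η.ker ⊓ _root_.commutator U := ⟨s.2, (QuotientGroup.eq_one_iff _).mp hs1⟩
    rw [hb] at this
    exact Subtype.ext this
  obtain ⟨l, hl⟩ := exists_extension_of_divisible hdiv i hi θ
  let ρ₀ : U →* X :=
    { toFun := fun u => ψ u * ((l (Abelianization.of u) : X))⁻¹
      map_one' := by simp
      map_mul' := fun a b => by
        have h1 := mem_center_iff.mp (inv_mem (hξ (l (Abelianization.of a)).2))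
        rw [map_mul, map_mul, mul_comm (Abelianization.of a), map_mul, Subgroup.coe_mul,
          mul_inv_rev, mul_assoc (ψ a), mul_assoc (ψ a), ← mul_assoc (ψ b), h1 (ψ b)]
        group }
  have hρ₀ : η.ker ≤ ρ₀.ker := fun s hs => by
    show ψ s * ((l (i ⟨s, hs⟩) : X))⁻¹ = 1
    rw [hl]
    exact mul_inv_cancel _
  refine ⟨η.liftOfSurjective hηs ⟨ρ₀, hρ₀⟩, ?_⟩
  ext g
  obtain ⟨u, rfl⟩ := hηs g
  have h1 := DFunLike.congr_fun hη u
  have h2 := DFunLike.congr_fun hψ u
  simp only [MonoidHom.comp_apply] at h1 h2 ⊢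
  rw [MonoidHom.liftOfRightInverse_comp_apply, h1, ← h2]
  show ξ (ψ u * _) = _
  rw [map_mul, map_inv, (show ξ (l (Abelianization.of u) : X) = 1 from (l _).2), inv_one, mul_one]

/-- The centre of `GL n ℂ` is divisible. -/
theorem center_gl_divisible (n : ℕ) (k : ℕ) (hk : k ≠ 0)
    (z : (QuotientGroup.mk' (center (GL (Fin n) ℂ))).ker) :
    ∃ w : (QuotientGroup.mk' (center (GL (Fin n) ℂ))).ker, w ^ k = z := by
  obtain ⟨z, hz⟩ := z
  have hz' := hz
  rw [QuotientGroup.ker_mk', Matrix.GeneralLinearGroup.center_eq_range_scalar] at hz'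
  obtain ⟨c, rfl⟩ := hz'
  obtain ⟨w, rfl⟩ := complex_units_divisible k hk c
  refine ⟨⟨Matrix.GeneralLinearGroup.scalar (Fin n) w, ?_⟩, Subtype.ext (by simp)⟩
  rw [QuotientGroup.ker_mk', Matrix.GeneralLinearGroup.center_eq_range_scalar]
  exact ⟨w, rfl⟩

/-- A linear character of a central subgroup is the central character of a nonzero
representation. -/
theorem exists_rep_of_central_character {Γ : Type*} [Group Γ] [Finite Γ] {Z : Subgroup Γ}
    (hZ : Z ≤ center Γ) (l : Z →* ℂˣ) :
    ∃ (n : ℕ) (ρ : Γ →* GL (Fin n) ℂ), 0 < n ∧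
      ∀ z : Z, ρ z = Matrix.GeneralLinearGroup.scalar (Fin n) (l z) := by
  classical
  let W : Submodule ℂ (Γ → ℂ) :=
    { carrier := {f | ∀ (z : Z) (x : Γ), f (z * x) = l z * f x}
      add_mem' := fun {f g} hf hg z x => by
        simp only [Pi.add_apply, hf z x, hg z x, mul_add]
      zero_mem' := fun z x => by simp
      smul_mem' := fun c f hf z x => by
        simp only [Pi.smul_apply, hf z x, smul_eq_mul]; ring }
  let r : Γ →* (W →ₗ[ℂ] W) :=
    { toFun := fun g =>
        { toFun := fun f => ⟨fun x => f.1 (x * g), fun z x => by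
            beta_reduce
            rw [mul_assoc]; exact f.2 z _⟩
          map_add' := fun _ _ => rfl
          map_smul' := fun _ _ => rfl }
      map_one' := by ext f x; simp
      map_mul' := fun g h => by ext f x; simp [mul_assoc] }
  let b := Module.finBasis ℂ W
  have hpos : 0 < Module.finrank ℂ W := by
    rw [Module.finrank_pos_iff_exists_ne_zero]
    refine ⟨⟨fun x => if h : x ∈ Z then l ⟨x, h⟩ else 0, fun z x => ?_⟩, fun h => ?_⟩
    · beta_reduce
      by_cases hx : x ∈ Z
      · rw [dif_pos hx, dif_pos (mul_mem z.2 hx), ← Units.val_mul, ← map_mul]; rfl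
      · rw [dif_neg hx, dif_neg (fun h => hx ((mul_mem_cancel_left z.2).mp h)), mul_zero]
    · have := congrFun (congrArg Subtype.val h) 1
      simp only [dif_pos Z.one_mem] at this
      exact Units.ne_zero _ this
  refine ⟨_, ((LinearMap.toMatrixAlgEquiv b).toMonoidHom.comp r).toHomUnits, hpos, fun z => ?_⟩
  have hz : r z = (l z : ℂ) • (1 : W →ₗ[ℂ] W) := by
    ext f x
    show f.1 (x * z) = _
    rw [mem_center_iff.mp (hZ z.2) x, f.2 z x]
    rfl
  apply Units.ext
  show LinearMap.toMatrixAlgEquiv b (r z) = _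
  rw [hz, map_smul, map_one]
  ext i j
  simp [Matrix.one_apply, Matrix.diagonal_apply]

theorem scalar_injective {n : ℕ} (hn : 0 < n) :
    Function.Injective (Matrix.GeneralLinearGroup.scalar (Fin n) : ℂˣ →* GL (Fin n) ℂ) := by
  intro a b h
  have h' : (Matrix.GeneralLinearGroup.scalar (Fin n) a : Matrix (Fin n) (Fin n) ℂ) =
      (Matrix.GeneralLinearGroup.scalar (Fin n) b : Matrix (Fin n) (Fin n) ℂ) := by rw [h]
  have := congrFun (congrFun h' ⟨0, hn⟩) ⟨0, hn⟩
  apply Units.ext
  simpa using this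

/-- If all projective representations lift along the extension `σ`, then a lift `η` from the
free central extension is injective on the commutator subgroup. -/
theorem IsFreeCentral.ker_inf_commutator_eq_bot_of_lift {Q : Type u} [Group Q] [Finite Q]
    {U : Type w} [Group U] {π : U →* Q} (h : IsFreeCentral π) {Γ : Type v} [Group Γ] {σ : Γ →* Q}
    (hlift : ∀ (n : ℕ) (γ : Q →* (GL (Fin n) ℂ ⧸ center (GL (Fin n) ℂ))),
      ∃ ρ : Γ →* GL (Fin n) ℂ, (QuotientGroup.mk' (center (GL (Fin n) ℂ))).comp ρ = γ.comp σ)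
    {η : U →* Γ} (hη : σ.comp η = π) : η.ker ⊓ _root_.commutator U = ⊥ := by
  open scoped IsMulCommutative in
  obtain ⟨Γ₀, _, _, σ₀, β, hσ₀, -, hβ, -, hβs, hb⟩ := h.exists_cover le_rfl
    fun r hr => ⟨r, hr, 1, one_mem _, (mul_one r).symm⟩
  rw [eq_bot_iff]
  rintro u ⟨hu, hu'⟩
  by_contra hne
  have hu1 : η u = 1 := hu
  have hπu : π u = 1 := by rw [← hη, MonoidHom.comp_apply, hu1, map_one]
  have hβu : β u ∈ σ₀.ker := by
    show σ₀ (β u) = 1
    rw [← MonoidHom.comp_apply, hβ, hπu]
  have : IsMulCommutative σ₀.ker := isMulCommutative_of_le_center hσ₀.2.1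
  have hne' : (⟨β u, hβu⟩ : σ₀.ker) ≠ 1 := fun h1 => hne (by
    rw [← hb]; exact ⟨congrArg Subtype.val h1, hu'⟩)
  obtain ⟨χ, hχ⟩ := exists_character_ne_one hne'
  obtain ⟨n, ρ₀, hn, hρ₀⟩ := exists_rep_of_central_character hσ₀.2.1 χ
  have hker : σ₀.ker ≤ ((QuotientGroup.mk' (center (GL (Fin n) ℂ))).comp ρ₀).ker := fun z hz => by
    rw [MonoidHom.mem_ker, MonoidHom.comp_apply, QuotientGroup.mk'_apply, QuotientGroup.eq_one_iff,
      Matrix.GeneralLinearGroup.center_eq_range_scalar]
    exact ⟨_, (hρ₀ ⟨z, hz⟩).symm⟩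
  obtain ⟨ρ, hρ⟩ := hlift n (σ₀.liftOfSurjective hσ₀.1 ⟨_, hker⟩)
  have key : (QuotientGroup.mk' (center (GL (Fin n) ℂ))).comp (ρ.comp η) =
      (QuotientGroup.mk' (center (GL (Fin n) ℂ))).comp (ρ₀.comp β) := by
    rw [← MonoidHom.comp_assoc, hρ, MonoidHom.comp_assoc, hη, ← hβ, ← MonoidHom.comp_assoc]
    ext x
    simp
  have := eq_on_commutator_of_central (by rw [QuotientGroup.ker_mk']) key hu'
  rw [MonoidHom.comp_apply, hu1, map_one, MonoidHom.comp_apply] at this
  have h2 := hρ₀ ⟨β u, hβu⟩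
  rw [← this, ← map_one (Matrix.GeneralLinearGroup.scalar (Fin n) : ℂˣ →* GL (Fin n) ℂ)] at h2
  exact hχ (scalar_injective hn h2).symm

/-- A stem extension on which a lift from the free central extension is injective on the
commutator subgroup has kernel isomorphic to `hopf π`. -/
theorem IsFreeCentral.nonempty_hopf_equiv_ker {Q : Type u} [Group Q]
    {U : Type w} [Group U] {π : U →* Q} (h : IsFreeCentral π) {Γ : Type v} [Group Γ] {σ : Γ →* Q}
    (hσ : IsStemExtension σ) {η : U →* Γ} (hη : σ.comp η = π)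
    (hb : η.ker ⊓ _root_.commutator U = ⊥) : Nonempty (hopf π ≃* σ.ker) := by
  have hm : (hopf π).map η = σ.ker :=
    (map_ker_inf_commutator h.surj hσ.2.1 hη).trans (hopf_eq_ker_of_stem hσ)
  let g : hopf π →* σ.ker := (MulEquiv.subgroupCongr hm).toMonoidHom.comp (η.subgroupMap _)
  have hg : Function.Surjective g :=
    (MulEquiv.subgroupCongr hm).surjective.comp (η.subgroupMap_surjective _)
  have hgi : Function.Injective g := by
    rw [injective_iff_map_eq_one]
    intro m hm1
    have : (m : U) ∈ η.ker ⊓ _root_.commutator U := ⟨congrArg Subtype.val hm1, m.2.2⟩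
    rw [hb] at this
    exact Subtype.ext this
  exact ⟨MulEquiv.ofBijective g ⟨hgi, hg⟩⟩

end Cfsg.Lib.Schur
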